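import Cfsg.Agent.H4.OA3

/-! S3354: maximal intersections of components at different points; basics. -/

set_option autoImplicit false
set_option linter.unusedSectionVars false

namespace CfsgOA

open MulAction Subgroup

variable {G Ω : Type*} [Group G] [MulAction G Ω] [Finite G] {C : Ω → Set (Subgroup G)} {a : ℕ}

/-- `S` is an intersection of order `a` of components at `x` and `y` -/
def Ed (C : Ω → Set (Subgroup G)) (a : ℕ) (x y : Ω) (S : Subgroup G) : Prop :=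
  ∃ T ∈ C x, ∃ U ∈ C y, S = T ⊓ U ∧ Nat.card S = a

/-- `S` lies in a component at `z` -/
def OnC (C : Ω → Set (Subgroup G)) (S : Subgroup G) (z : Ω) : Prop := ∃ T ∈ C z, S ≤ T

structure AL (C : Ω → Set (Subgroup G)) (a : ℕ) : Prop where
  two : Two G Ω
  cf : CF C
  det : ∀ x y T, T ∈ C x → T ∈ C y → x = y
  a1 : 1 < a
  max : ∀ x y, x ≠ y → ∀ T ∈ C x, ∀ U ∈ C y, Nat.card (T ⊓ U : Subgroup G) ≤ a
  ex : ∀ x y, x ≠ y → ∃ S, Ed C a x y S

theorem fixgen {T H : Subgroup G} (s : IsSimpleGroup T) {k : G} (hk : k ∈ T) (k1 : k ≠ 1)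
    (h : ∀ n ∈ T, n * k * n⁻¹ ∈ H) : T ≤ H := by
  let K : Subgroup T :=
    { carrier := {t | ∀ n ∈ T, n * t.1 * n⁻¹ ∈ H}
      mul_mem' := fun {p q} hp hq n hn => by
        have := H.mul_mem (hp n hn) (hq n hn)
        rwa [conj_mul] at this
      one_mem' := fun n _ => by simp
      inv_mem' := fun {p} hp n hn => by
        have := H.inv_mem (hp n hn)
        simpa [mul_assoc] using this }
  have : K.Normal := ⟨fun p hp q n hn => by
    have := hp (n * q.1) (T.mul_mem hn q.2)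
    simpa [mul_assoc] using this⟩
  rcases this.eq_bot_or_eq_top with e | e
  · have : (⟨k, hk⟩ : T) ∈ K := h
    rw [e, mem_bot] at this
    exact (k1 (congrArg Subtype.val this)).elim
  · intro t ht
    have : (⟨t, ht⟩ : T) ∈ K := e ▸ mem_top _
    simpa using this 1 T.one_mem

theorem cg_of_comm {S : Subgroup G} {g : G} (h : ∀ s ∈ S, g * s = s * g) : cg g S = S :=
  cg_eq_of_le fun t ht => by rw [h t ht]; simpa using ht

theorem cg_le_cg {S T : Subgroup G} (h : S ≤ T) (g : G) : cg g S ≤ cg g T := map_mono h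

theorem conj_mem_cg {T : Subgroup G} {t : G} (h : t ∈ T) (g : G) : g * t * g⁻¹ ∈ cg g T :=
  mem_cg.2 (by simpa [mul_assoc] using h)

theorem cg_self {T : Subgroup G} {t : G} (h : t ∈ T) : cg t T = T :=
  cg_eq_of_le fun _ hs => T.mul_mem (T.mul_mem h hs) (T.inv_mem h)

theorem Ed.symm {x y : Ω} {S : Subgroup G} (h : Ed C a x y S) : Ed C a y x S :=
  let ⟨T, b, U, c, d, e⟩ := h
  ⟨U, c, T, b, d.trans (inf_comm _ _), e⟩

theorem Ed.on1 {x y : Ω} {S : Subgroup G} (h : Ed C a x y S) : OnC C S x :=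
  let ⟨T, b, _, _, d, _⟩ := h
  ⟨T, b, d ▸ inf_le_left⟩

theorem Ed.on2 {x y : Ω} {S : Subgroup G} (h : Ed C a x y S) : OnC C S y := h.symm.on1

theorem Ed.card {x y : Ω} {S : Subgroup G} (h : Ed C a x y S) : Nat.card S = a :=
  let ⟨_, _, _, _, _, e⟩ := h
  e

namespace AL

variable (h : AL C a)
include h

theorem cen0 {x : Ω} {T : Subgroup G} (hT : T ∈ C x) {k : G} (hk : k ∈ T)
    (c : ∀ t ∈ T, t * k = k * t) : k = 1 := by
  by_contra k1
  obtain ⟨p, hp, q, hq, n⟩ := h.cf.nc x T hT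
  refine n (mem_centralizer_iff.1 (fixgen (H := centralizer (T : Set G)) (h.cf.simple x T hT) hk k1
    (fun m hm => ?_) hq) p hp)
  rw [c m hm, mul_inv_cancel_right]
  exact mem_centralizer_iff.2 c

theorem same0 {x : Ω} {T U : Subgroup G} (hT : T ∈ C x) (hU : U ∈ C x) {k : G} (k1 : k ≠ 1)
    (a1 : k ∈ T) (a2 : k ∈ U) : T = U := by
  by_contra e
  exact k1 (h.cen0 hT a1 fun t ht => h.cf.comm x T hT U hU e t ht k a2)

theorem exk {S : Subgroup G} (c : Nat.card S = a) : ∃ k ∈ S, k ≠ 1 := by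
  by_contra n
  push Not at n
  have : S = ⊥ := (eq_bot_iff_forall S).2 n
  have := h.a1
  rw [← c, ‹S = ⊥›, card_bot] at this
  exact lt_irrefl _ this

theorem sameS {x : Ω} {S T U : Subgroup G} (c : Nat.card S = a) (hT : T ∈ C x) (hU : U ∈ C x)
    (a1 : S ≤ T) (a2 : S ≤ U) : T = U :=
  let ⟨_, b, d⟩ := h.exk c
  h.same0 hT hU d (a1 b) (a2 b)

theorem ed_of {S : Subgroup G} (c : Nat.card S = a) {x y : Ω} (n : x ≠ y) (h1 : OnC C S x)
    (h2 : OnC C S y) : Ed C a x y S := by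
  obtain ⟨T, hT, a1⟩ := h1
  obtain ⟨U, hU, a2⟩ := h2
  exact ⟨T, hT, U, hU, eq_of_le_of_card_ge (le_inf a1 a2) (c ▸ h.max x y n T hT U hU), c⟩

theorem on_smul {S : Subgroup G} {z : Ω} (o : OnC C S z) (g : G) : OnC C (cg g S) (g • z) :=
  let ⟨T, b, c⟩ := o
  ⟨cg g T, h.cf.cj g z T b, cg_le_cg c g⟩

/-- an element of another component keeps the block -/
theorem on_other {S T U : Subgroup G} {x z : Ω} (hT : T ∈ C x) (hU : U ∈ C x) (n : U ≠ T)
    (le : S ≤ T) {g : G} (hg : g ∈ U) (o : OnC C S z) : OnC C S (g • z) := by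
  have := h.on_smul o g
  rwa [cg_of_comm fun s hs => h.cf.comm x U hU T hT n g hg s (le hs)] at this

theorem trC [Nontrivial Ω] {x y : Ω} {T U : Subgroup G} (hT : T ∈ C x) (hU : U ∈ C y) :
    ∃ g : G, g • x = y ∧ cg g T = U := by
  obtain ⟨x', hx⟩ := exists_ne x
  obtain ⟨y', hy⟩ := exists_ne y
  obtain ⟨g, e, -⟩ := h.two x x' y y' hx.symm hy.symm
  obtain ⟨g', e1, e2⟩ := h.cf.trans y _ (e ▸ h.cf.cj g x T hT) U hU
  exact ⟨g' * g, by rw [mul_smul, e, e1], by rw [← cg_cg, e2]⟩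

theorem cardC [Nontrivial Ω] {x y : Ω} {T U : Subgroup G} (hT : T ∈ C x) (hU : U ∈ C y) :
    Nat.card T = Nat.card U := by
  obtain ⟨g, -, rfl⟩ := h.trC hT hU
  exact (card_cg g T).symm

theorem fixpt {x w : Ω} {T : Subgroup G} (hT : T ∈ C x) {k : G} (hk : k ∈ T) (k1 : k ≠ 1)
    (f : ∀ n ∈ T, k • n • w = n • w) : ∀ n ∈ T, n • w = w := fun _ hn =>
  fixgen (H := stabilizer G w) (h.cf.simple x T hT) hk k1 (fun n hn => by
    have := f n⁻¹ (T.inv_mem hn)
    rw [mem_stabilizer_iff, mul_smul, mul_smul, this, smul_inv_smul]) hn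

/-- a component meeting a component at `y` moves `y` -/
theorem mv0 {x y : Ω} (n : x ≠ y) {T U : Subgroup G} (hT : T ∈ C x) (hU : U ∈ C y) {k : G}
    (k1 : k ≠ 1) (a1 : k ∈ T) (a2 : k ∈ U) : ∃ t ∈ T, t • y ≠ y := by
  have : Nontrivial Ω := ⟨x, y, n⟩
  by_contra f
  push Not at f
  have b : T ≤ normalizer (U : Set G) := fixgen (h.cf.simple x T hT) a1 k1 fun m hm => by
    have c := h.cf.cj m y U hU
    rw [f m hm] at c
    by_cases e : cg m U = U
    · exact le_normalizer (e ▸ conj_mem_cg a2 m)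
    · refine mem_normalizer_fintype fun u hu => ?_
      rw [h.cf.comm y _ c U hU e _ (conj_mem_cg a2 m) u hu, mul_inv_cancel_right]
      exact hu
  have c : T ≤ U := fixgen (h.cf.simple x T hT) a1 k1 fun m hm =>
    (mem_normalizer_iff.1 (b hm) k).1 a2
  exact n (h.det x y T hT (eq_of_le_of_card_ge c (h.cardC hU hT).le ▸ hU))

theorem mvS {x y : Ω} (n : x ≠ y) {S T : Subgroup G} (c : Nat.card S = a) (hT : T ∈ C x)
    (le : S ≤ T) (o : OnC C S y) : ∃ t ∈ T, t • y ≠ y :=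
  let ⟨_, b, d⟩ := h.exk c
  let ⟨_, hU, l⟩ := o
  h.mv0 n hT hU d (le b) (l b)

theorem fixS {S : Subgroup G} {z : Ω} (o : OnC C S z) {k : G} (hk : k ∈ S) : k • z = z :=
  let ⟨T, b, c⟩ := o
  h.cf.fix z T b k (c hk)

end AL

end CfsgOA
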