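import Cfsg.Agent.H6.OE0

/-! S3354: one maximal intersection per pair is impossible. -/

set_option autoImplicit false
set_option linter.unusedSectionVars false

namespace CfsgOA

open MulAction Subgroup Finset

variable {G Ω : Type*} [Group G] [MulAction G Ω] [Finite G] {C : Ω → Set (Subgroup G)} {a : ℕ}

/-- lines and types -/
structure LT (C : Ω → Set (Subgroup G)) (a : ℕ) (L ty : Ω → Ω → Subgroup G) : Prop
    extends AL C a where
  ed : ∀ x y, x ≠ y → Ed C a x y (L x y)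
  uq : ∀ x y, x ≠ y → ∀ S, Ed C a x y S → S = L x y
  tc : ∀ x y, x ≠ y → ty x y ∈ C x
  tl : ∀ x y, x ≠ y → L x y ≤ ty x y

namespace LT

variable {L ty : Ω → Ω → Subgroup G} (h : LT C a L ty)
include h

theorem uL {S : Subgroup G} (c : Nat.card S = a) {x y : Ω} (n : x ≠ y) (h1 : OnC C S x)
    (h2 : OnC C S y) : S = L x y := h.uq x y n S (h.toAL.ed_of c n h1 h2)

theorem cL {x y : Ω} (n : x ≠ y) : Nat.card (L x y) = a := (h.ed x y n).card

theorem Lsm {x y : Ω} (n : x ≠ y) (g : G) : cg g (L x y) = L (g • x) (g • y) :=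
  h.uL (by rw [card_cg, h.cL n]) ((MulAction.injective g).ne n)
    (h.toAL.on_smul (h.ed x y n).on1 g) (h.toAL.on_smul (h.ed x y n).on2 g)

theorem tysm {x y : Ω} (n : x ≠ y) (g : G) : ty (g • x) (g • y) = cg g (ty x y) :=
  have n' := (MulAction.injective g).ne n
  h.toAL.sameS (h.cL n') (h.tc _ _ n') (h.cf.cj g x _ (h.tc x y n)) (h.tl _ _ n')
    (h.Lsm n g ▸ cg_le_cg (h.tl x y n) g)

theorem ty_eq {x y : Ω} (n : x ≠ y) {T : Subgroup G} (hT : T ∈ C x) (le : L x y ≤ T) :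
    ty x y = T := h.toAL.sameS (h.cL n) (h.tc x y n) hT (h.tl x y n) le

/-- the key remark -/
theorem key {z w : Ω} (n : z ≠ w) {T : Subgroup G} (hT : T ∈ C z) (d : ty z w ≠ T) {k : G}
    (hk : k ∈ T) (m : k • w ≠ w) : L z w = L w (k • w) :=
  h.uL (h.cL n) m.symm (h.ed z w n).on2
    (h.toAL.on_other (h.tc z w n) hT d.symm (h.tl z w n) hk (h.ed z w n).on2)

theorem b0 [Nontrivial Ω]
    (b : ∀ x w, x ≠ w → ∀ T ∈ C x, ty x w ≠ T → ∀ n ∈ T, n • w = w) : False := by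
  obtain ⟨x, y, n⟩ := exists_pair_ne Ω
  have hT := h.tc x y n
  have hU := h.tc y x n.symm
  have lT := h.tl x y n
  have lU : L x y ≤ ty y x := h.uq y x n.symm _ (h.ed x y n).symm ▸ h.tl y x n.symm
  obtain ⟨V, hV, nV⟩ : ∃ V ∈ C y, ty y x ≠ V := by
    obtain ⟨P, hP, Q, hQ, e⟩ := h.cf.two y
    by_cases e' : ty y x = P
    · exact ⟨Q, hQ, e' ▸ e⟩
    · exact ⟨P, hP, e'⟩
  have Vx := b y x n.symm V hV nV
  have VT : ∀ γ ∈ V, ∀ t ∈ ty x y, γ * t * γ⁻¹ ∈ ty x y := fun γ hγ t ht => by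
    have a1 := h.cf.cj γ x _ hT
    rw [Vx γ hγ] at a1
    have a2 := cg_le_cg lT γ
    rw [cg_of_comm fun s hs => h.cf.comm y V hV _ hU nV.symm γ hγ s (lU hs)] at a2
    rw [← h.toAL.sameS (h.cL n) a1 hT a2 lT]
    exact conj_mem_cg ht γ
  have TV : ∀ k ∈ ty x y, k ∈ V → k = 1 := fun k k1 k2 => by
    by_contra e
    obtain ⟨t, ht, e⟩ := h.toAL.mv0 n.symm hV hT e k2 k1
    exact e (Vx t ht)
  generalize ty x y = T at *
  have cm : ∀ c ∈ T, c • y = y → ∀ γ ∈ V, c * γ = γ * c := fun c hc cy γ hγ => by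
    have a1 := h.cf.cj c y _ hV
    rw [cy] at a1
    have m : ∀ γ ∈ V, c * γ * c⁻¹ * γ⁻¹ ∈ T := fun γ hγ => by
      have := T.mul_mem hc (VT γ hγ _ (T.inv_mem hc))
      simpa [mul_assoc] using this
    by_cases e : cg c V = V
    · have := TV _ (m γ hγ) (V.mul_mem (e ▸ conj_mem_cg hγ c) (V.inv_mem hγ))
      rwa [mul_inv_eq_one, mul_inv_eq_iff_eq_mul] at this
    · obtain ⟨p, hp, q, hq, ne⟩ := h.cf.nc y V hV
      have c1 := h.cf.comm y _ a1 V hV e _ (conj_mem_cg hp c) q hq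
      have c2 := T.mul_mem (T.inv_mem (m p hp)) (VT q hq _ (m p hp))
      have c3 : (c * p * c⁻¹ * p⁻¹)⁻¹ * (q * (c * p * c⁻¹ * p⁻¹) * q⁻¹) = p * q * p⁻¹ * q⁻¹ := by
        rw [← mul_assoc q, ← c1]; group
      rw [c3] at c2
      have := TV _ c2 (V.mul_mem (V.mul_mem (V.mul_mem hp hq) (V.inv_mem hp)) (V.inv_mem hq))
      rw [mul_inv_eq_one, mul_inv_eq_iff_eq_mul] at this
      exact (ne this).elim
  obtain ⟨t, ht, ty'⟩ := h.toAL.mvS n (h.cL n) hT lT (h.ed x y n).on2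
  have st : ∀ m ∈ T, (∀ γ ∈ V, γ • m • y = m • y) → m • y = y := fun m hm f => by
    have ph : ∀ γ : V, γ.1⁻¹ * (m⁻¹ * γ.1 * m) ∈ T ⊓ stabilizer G y := fun γ => ⟨by
      have := T.mul_mem (VT _ (V.inv_mem γ.2) _ (T.inv_mem hm)) hm
      simpa [mul_assoc] using this, by
      change _ • y = y
      rw [mul_smul, mul_smul, mul_smul, f _ γ.2, inv_smul_smul, h.cf.fix y V hV _ (V.inv_mem γ.2)]⟩
    have lt : Nat.card (T ⊓ stabilizer G y : Subgroup G) < Nat.card V := by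
      rw [h.toAL.cardC hV hT]
      refine lt_of_le_of_ne (card_le_of_le inf_le_left) fun e => ty' ?_
      exact ((eq_of_le_of_card_ge inf_le_left e.ge).ge ht).2
    have ni : ¬ Function.Injective fun γ : V => (⟨_, ph γ⟩ : (T ⊓ stabilizer G y : Subgroup G)) :=
      fun i => absurd (Nat.card_le_card_of_injective _ i) (by omega)
    obtain ⟨p, q, e, ne⟩ := Function.not_injective_iff.1 ni
    have e : p.1⁻¹ * (m⁻¹ * p.1 * m) = q.1⁻¹ * (m⁻¹ * q.1 * m) := congrArg Subtype.val e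
    have d : m⁻¹ * (p.1 * q.1⁻¹) * m = p.1 * q.1⁻¹ := by
      calc _ = p.1 * (p.1⁻¹ * (m⁻¹ * p.1 * m)) * (q.1⁻¹ * (m⁻¹ * q.1 * m))⁻¹ * q.1⁻¹ := by group
        _ = _ := by rw [e]; group
    have hd := V.mul_mem p.2 (V.inv_mem q.2)
    have le : V ≤ centralizer {m} := fixgen (h.cf.simple y V hV) hd
      (fun e => ne (Subtype.ext (mul_inv_eq_one.1 e))) fun ε hε => by
        have c := cm _ (ph ⟨ε, hε⟩).1 (ph ⟨ε, hε⟩).2 _ hd
        rw [mem_centralizer_singleton_iff]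
        generalize p.1 * q.1⁻¹ = δ at *
        calc ε * δ * ε⁻¹ * m
            = m * (ε * (ε⁻¹ * (m⁻¹ * ε * m) * (m⁻¹ * δ * m)) * (ε⁻¹ * (m⁻¹ * ε * m))⁻¹ * ε⁻¹) := by
              group
          _ = m * (ε * δ * ε⁻¹) := by rw [d, c]; group
    have := h.cf.cj m y V hV
    rw [cg_of_comm fun s hs => (mem_centralizer_singleton_iff.1 (le hs)).symm] at this
    exact h.det _ _ V this hV
  obtain ⟨k, hk, k1⟩ := h.toAL.exk (h.cL n)
  refine ty' (h.toAL.fixpt hT (lT hk) k1 (fun m hm => ?_) t ht)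
  by_cases e : m • y = y
  · rw [e]; exact h.toAL.fixS (h.ed x y n).on2 hk
  · refine b y _ (Ne.symm e) _ hU (fun d => e (st m hm fun γ hγ => ?_)) k (lU hk)
    exact b y _ (Ne.symm e) V hV (d ▸ nV) γ hγ

open Classical in
theorem b1 [Fintype Ω] [Nontrivial Ω] {x0 w0 : Ω} (n0 : x0 ≠ w0) {T0 : Subgroup G}
    (hT0 : T0 ∈ C x0) (d0 : ty x0 w0 ≠ T0) (m0 : ∃ n ∈ T0, n • w0 ≠ w0) : False := by
  let A : Ω → Subgroup G → Finset Ω := fun z T => univ.filter fun w => z ≠ w ∧ ty z w = T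
  let B : Ω → Subgroup G → Finset Ω := fun z T =>
    univ.filter fun w => z ≠ w ∧ ty z w ≠ T ∧ ∃ n ∈ T, n • w ≠ w
  let ln : Subgroup G → Ω → Finset Ω := fun S z => univ.filter fun w => z ≠ w ∧ OnC C S w
  have inj : ∀ g : G, ∀ s : Set Ω, Set.InjOn (fun w : Ω => g • w) s :=
    fun g _ => (MulAction.injective g).injOn
  have cgi : ∀ (g : G) (T U : Subgroup G), cg g T = cg g U → T = U := fun g T U e => by
    rw [← cg_one T, ← cg_one U, ← inv_mul_cancel g, ← cg_cg, ← cg_cg, e]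
  have mvc : ∀ (g : G) (T : Subgroup G) (w : Ω), (∃ n ∈ T, n • w ≠ w) →
      ∃ n ∈ cg g T, n • g • w ≠ g • w := fun g T w ⟨n, a1, a2⟩ =>
    ⟨_, conj_mem_cg a1 g, by
      rw [mul_smul, mul_smul, inv_smul_smul]; exact (MulAction.injective g).ne a2⟩
  have cA : ∀ z z' T T', T ∈ C z → T' ∈ C z' → (A z T).card ≤ (A z' T').card :=
    fun z z' T T' a1 a2 => by
      obtain ⟨g, rfl, rfl⟩ := h.toAL.trC a1 a2
      refine card_le_card_of_injOn (fun w => g • w) (fun w hw => ?_) (inj g _)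
      simp only [A, coe_filter, mem_univ, true_and, Set.mem_ofPred_eq] at hw ⊢
      exact ⟨(MulAction.injective g).ne hw.1, by rw [h.tysm hw.1, hw.2]⟩
  have cB : ∀ z z' T T', T ∈ C z → T' ∈ C z' → (B z T).card ≤ (B z' T').card :=
    fun z z' T T' a1 a2 => by
      obtain ⟨g, rfl, rfl⟩ := h.toAL.trC a1 a2
      refine card_le_card_of_injOn (fun w => g • w) (fun w hw => ?_) (inj g _)
      simp only [B, coe_filter, mem_univ, true_and, Set.mem_ofPred_eq] at hw ⊢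
      exact ⟨(MulAction.injective g).ne hw.1, by
        rw [h.tysm hw.1]; exact fun e => hw.2.1 (cgi g _ _ e), mvc g T w hw.2.2⟩
  have cl : ∀ z w z' w', z ≠ w → z' ≠ w' → (ln (L z w) z).card ≤ (ln (L z' w') z').card :=
    fun z w z' w' a1 a2 => by
      obtain ⟨g, rfl, rfl⟩ := h.two z w z' w' a1 a2
      refine card_le_card_of_injOn (fun w => g • w) (fun v hv => ?_) (inj g _)
      simp only [ln, coe_filter, mem_univ, true_and, Set.mem_ofPred_eq] at hv ⊢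
      exact ⟨(MulAction.injective g).ne hv.1, h.Lsm a1 g ▸ h.toAL.on_smul hv.2 g⟩
  -- `|A| ≤ |B|`
  obtain ⟨T1, hT1, AB⟩ : ∃ T ∈ C x0, (A x0 T).card ≤ (B x0 T).card := by
    let F : Finset (Subgroup G) := (Set.toFinite (C x0)).toFinset
    have mF : ∀ T, T ∈ F ↔ T ∈ C x0 := fun T => Set.Finite.mem_toFinset _
    have s1 : ∑ T ∈ F, (A x0 T).card = (F.biUnion (A x0)).card := (card_biUnion fun T _ U _ ne =>
      disjoint_left.2 fun w a1 a2 => ne ((mem_filter.1 a1).2.2.symm.trans (mem_filter.1 a2).2.2)).symm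
    have s2 : F.biUnion (A x0) ⊆ F.biUnion (B x0) := fun w hw => by
      obtain ⟨T, -, a1⟩ := mem_biUnion.1 hw
      obtain ⟨g, e1, e2⟩ := h.two x0 w0 x0 w n0 (mem_filter.1 a1).2.1
      refine mem_biUnion.2 ⟨cg g T0, (mF _).2 (e1 ▸ h.cf.cj g x0 T0 hT0), mem_filter.2
        ⟨mem_univ _, (mem_filter.1 a1).2.1, fun e => d0 (cgi g _ _ ?_), e2 ▸ mvc g T0 w0 m0⟩⟩
      rw [← h.tysm n0, e1, e2, e]
    obtain ⟨T, a1, a2⟩ := exists_le_of_sum_le ⟨T0, (mF _).2 hT0⟩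
      (s1.trans_le ((card_le_card s2).trans card_biUnion_le))
    exact ⟨T, (mF _).1 a1, a2⟩
  obtain ⟨k, hk, k1⟩ := h.toAL.exk (h.cL n0)
  have cS := h.cL n0
  set S := L x0 w0 with hS
  -- components along the line
  have hz : ∀ z, ∃ T, OnC C S z → T ∈ C z ∧ S ≤ T := fun z => by
    by_cases o : OnC C S z
    · obtain ⟨T, a1⟩ := o
      exact ⟨T, fun _ => a1⟩
    · exact ⟨⊥, fun a1 => (o a1).elim⟩
  choose Tz hTz using hz
  let R : Ω → Finset (Subgroup G) := fun z => (B z (Tz z)).image (L z)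
  have hw : ∀ z S', ∃ w, OnC C S z → S' ∈ R z → OnC C S' w ∧ k • w ≠ w := fun z S' => by
    by_cases o : OnC C S z ∧ S' ∈ R z
    · obtain ⟨w, a1, rfl⟩ := mem_image.1 o.2
      obtain ⟨-, b1, b2, n, b3, b4⟩ := mem_filter.1 a1
      by_contra f
      push Not at f
      exact b4 (h.toAL.fixpt (hTz z o.1).1 ((hTz z o.1).2 hk) k1 (fun m hm => (f (m • w)).2.2
        (h.toAL.on_other (h.tc z w b1) (hTz z o.1).1 b2.symm (h.tl z w b1) hm (h.ed z w b1).on2)) n b3)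
    · exact ⟨z, fun a1 a2 => (o ⟨a1, a2⟩).elim⟩
  choose W hW using hw
  have o0 : OnC C S x0 := (h.ed x0 w0 n0).on1
  have o1 : OnC C S w0 := (h.ed x0 w0 n0).on2
  have pr : ∀ z, OnC C S z → ∀ S' ∈ R z, Nat.card S' = a ∧ OnC C S' z ∧ S' ≠ S ∧
      S' = L (W z S') (k • W z S') := fun z o S' hS' => by
    obtain ⟨c1, c2⟩ := hW z S' o hS'
    obtain ⟨w, a1, rfl⟩ := mem_image.1 hS'
    obtain ⟨-, b1, b2, -⟩ := mem_filter.1 a1
    refine ⟨h.cL b1, (h.ed z w b1).on1, fun e => b2 (h.ty_eq b1 (hTz z o).1 (e ▸ (hTz z o).2)),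
      h.uL (h.cL b1) c2.symm c1 (h.toAL.on_other (h.tc z w b1) (hTz z o).1 b2.symm (h.tl z w b1)
        ((hTz z o).2 hk) c1)⟩
  have two' : ∀ z z' (S' : Subgroup G), OnC C S z → OnC C S z' → Nat.card S' = a → OnC C S' z → OnC C S' z' →
      S' ≠ S → z = z' := fun z z' S' a1 a2 a3 a4 a5 a6 => by
    by_contra e
    exact a6 ((h.uL a3 e a4 a5).trans (h.uL cS e a1 a2).symm)
  have c1 : ((ln S x0).sigma R).card ≤ ((A x0 (Tz x0)).erase w0).card := by
    refine card_le_card_of_injOn (fun p => W p.1 p.2) (fun p hp => ?_) fun p hp q hq e => ?_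
    · obtain ⟨a1, a2⟩ := mem_sigma.1 (mem_coe.1 hp)
      obtain ⟨-, a3, a4⟩ := mem_filter.1 a1
      obtain ⟨b1, b2⟩ := hW _ _ a4 a2
      obtain ⟨d1, d2, d3, d4⟩ := pr _ a4 _ a2
      have ne : x0 ≠ W p.1 p.2 := fun e => b2 (e ▸ h.toAL.fixS o0 hk)
      refine mem_coe.2 (mem_erase.2 ⟨fun e : W p.1 p.2 = w0 => b2 (e.symm ▸ h.toAL.fixS o1 hk),
        mem_filter.2 ⟨mem_univ _, ne, ?_⟩⟩)
      by_contra f
      have := h.key ne (hTz x0 o0).1 f ((hTz x0 o0).2 hk) b2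
      exact a3 (two' _ _ p.2 o0 a4 d1 ((d4.trans this.symm).symm ▸ (h.ed _ _ ne).on1) d2 d3)
    · obtain ⟨a1, a2⟩ := mem_sigma.1 (mem_coe.1 hp)
      obtain ⟨b1, b2⟩ := mem_sigma.1 (mem_coe.1 hq)
      obtain ⟨d1, d2, d3, d4⟩ := pr _ (mem_filter.1 a1).2.2 _ a2
      obtain ⟨-, e2, -, e4⟩ := pr _ (mem_filter.1 b1).2.2 _ b2
      have e' : W p.1 p.2 = W q.1 q.2 := e
      have f : p.2 = q.2 := by rw [d4, e', ← e4]
      exact Sigma.ext (two' _ _ p.2 (mem_filter.1 a1).2.2 (mem_filter.1 b1).2.2 d1 d2 (f ▸ e2) d3)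
        (heq_of_eq f)
  have w0A : w0 ∈ A x0 (Tz x0) :=
    mem_filter.2 ⟨mem_univ _, n0, h.ty_eq n0 (hTz x0 o0).1 (hTz x0 o0).2⟩
  rw [card_erase_of_mem w0A, card_sigma] at c1
  have pos := card_pos.2 ⟨_, w0A⟩
  obtain ⟨z, z1, z2⟩ := exists_min_image (ln S x0) (fun z => (R z).card)
    ⟨w0, mem_filter.2 ⟨mem_univ _, n0, o1⟩⟩
  have c2 := card_nsmul_le_sum _ _ _ z2
  have oz := (mem_filter.1 z1).2.2
  have c3 : (B z (Tz z)).card ≤ (ln S x0).card * (R z).card :=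
    card_le_mul_card_image _ _ fun S' hS' => by
      obtain ⟨w, a1, rfl⟩ := mem_image.1 hS'
      refine le_trans (card_le_card fun v hv => ?_) (cl z w x0 w0 (mem_filter.1 a1).2.1 n0)
      obtain ⟨b1, b2⟩ := mem_filter.1 hv
      have := (mem_filter.1 b1).2.1
      exact mem_filter.2 ⟨mem_univ _, this, b2 ▸ (h.ed z v this).on2⟩
  have c4 := cB _ _ _ _ hT1 (hTz z oz).1
  have c5 := cA _ _ _ _ (hTz x0 o0).1 hT1
  rw [smul_eq_mul] at c2
  omega

end LT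

theorem AL.e1 [Finite Ω] [Nontrivial Ω] (h : AL C a)
    (uniq : ∀ x y, x ≠ y → ∀ S S1, Ed C a x y S → Ed C a x y S1 → S = S1) : False := by
  have := Fintype.ofFinite Ω
  have h1 : ∀ x y, ∃ S, x ≠ y → Ed C a x y S := fun x y => by
    by_cases e : x = y
    · exact ⟨⊥, fun n => (n e).elim⟩
    · exact (h.ex x y e).imp fun _ b _ => b
  choose L hL using h1
  have h2 : ∀ x y, ∃ T, x ≠ y → T ∈ C x ∧ L x y ≤ T := fun x y => by
    by_cases e : x = y
    · exact ⟨⊥, fun n => (n e).elim⟩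
    · exact (hL x y e).on1.imp fun _ b _ => b
  choose ty hty using h2
  have l : LT C a L ty := ⟨h, hL, fun x y n S b => uniq x y n _ _ b (hL x y n),
    fun x y n => (hty x y n).1, fun x y n => (hty x y n).2⟩
  refine l.b0 fun x w n T hT d m hm => ?_
  by_contra e
  exact l.b1 n hT d ⟨m, hm, e⟩

end CfsgOA
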