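import Cfsg.Agent.H6.VC1
import Cfsg.Agent.L.PC
import Cfsg.Agent.H4.LinMid
import Cfsg.Agent.H9.VA2

set_option autoImplicit false
set_option linter.unusedSectionVars false

/-! Linear groups over `F₂` containing a Singer cycle with a TI property. -/

namespace CfsgSE

open Subgroup CfsgH5 CfsgH6 CfsgFT MulAction

universe u

variable {L W : Type u} [Group L] [Finite L] [CommGroup W] [Finite W] [MulDistribMulAction L W]

/-- the orbits of `X` are permuted. -/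
def BlkS (W : Type u) [CommGroup W] [MulDistribMulAction L W] (X : Subgroup L) : Subgroup L where
  carrier := {g | ∀ v : W, ∀ s ∈ X, ∃ s' ∈ X, g • s • v = s' • g • v}
  one_mem' v s hs := ⟨s, hs, by rw [one_smul, one_smul]⟩
  mul_mem' {a b} ha hb v s hs := by
    obtain ⟨s1, h1, e1⟩ := hb v s hs
    obtain ⟨s2, h2, e2⟩ := ha (b • v) s1 h1
    exact ⟨s2, h2, by rw [mul_smul, e1, e2, mul_smul]⟩
  inv_mem' {a} ha := by
    have : ∀ n : ℕ, ∀ v : W, ∀ s ∈ X, ∃ s' ∈ X, a ^ n • s • v = s' • a ^ n • v := fun n => by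
      induction n with
      | zero => exact fun v s hs => ⟨s, hs, by simp⟩
      | succ n ih =>
        intro v s hs
        obtain ⟨s1, h1, e1⟩ := ih v s hs
        obtain ⟨s2, h2, e2⟩ := ha (a ^ n • v) s1 h1
        exact ⟨s2, h2, by rw [pow_succ', mul_smul, e1, e2, mul_smul]⟩
    have e : a⁻¹ = a ^ (orderOf a - 1) := by
      rw [inv_eq_iff_mul_eq_one, ← pow_succ', Nat.sub_add_cancel (orderOf_pos a),
        pow_orderOf_eq_one]
    rw [e]; exact this _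

/-- the kernel on the orbits of `X`. -/
def KerS (W : Type u) [CommGroup W] [MulDistribMulAction L W] (X : Subgroup L) : Subgroup L where
  carrier := {g | g ∈ BlkS W X ∧ ∀ v : W, ∃ s ∈ X, g • v = s • v}
  one_mem' := ⟨one_mem _, fun v => ⟨1, one_mem _, rfl⟩⟩
  mul_mem' {a b} ha hb := ⟨mul_mem ha.1 hb.1, fun v => by
    obtain ⟨s1, h1, e1⟩ := hb.2 v
    obtain ⟨s2, h2, e2⟩ := ha.1 v s1 h1
    obtain ⟨s3, h3, e3⟩ := ha.2 v
    exact ⟨s2 * s3, mul_mem h2 h3, by rw [mul_smul, e1, e2, e3, mul_smul]⟩⟩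
  inv_mem' {a} ha := ⟨inv_mem ha.1, fun v => by
    obtain ⟨s, h1, e⟩ := ha.2 (a⁻¹ • v)
    rw [smul_inv_smul] at e
    exact ⟨s⁻¹, inv_mem h1, by rw [eq_inv_smul_iff, ← e]⟩⟩

theorem nrm_KerS (X : Subgroup L) : Nrm (BlkS W X) (KerS W X) := fun g hg z hz =>
  ⟨mul_mem (mul_mem hg hz.1) (inv_mem hg), fun v => by
    obtain ⟨s, h1, e⟩ := hz.2 (g⁻¹ • v)
    obtain ⟨s2, h2, e2⟩ := hg (g⁻¹ • v) s h1
    exact ⟨s2, h2, by rw [mul_smul, mul_smul, e, e2, smul_inv_smul]⟩⟩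

/-- hypotheses of the linear lemma. -/
structure Sing (W : Type u) [CommGroup W] [MulDistribMulAction L W] (S E : Subgroup L) : Prop where
  faith : ∀ g : L, (∀ v : W, g • v = v) → g = 1
  sq : ∀ v : W, v * v = 1
  h16 : 16 ≤ Nat.card W
  cyc : IsCyclic S
  tr : ∀ v w : W, v ≠ 1 → w ≠ 1 → ∃ s ∈ S, s • v = w
  nE : Nrm E S
  ti : ∀ (r : ℕ) (Y : Subgroup L), r.Prime → IsPGroup r Y → Y ⊓ S ≠ ⊥ → N Y ≤ E

namespace Sing

variable {S E X M : Subgroup L} (h : Sing W S E)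
include h

theorem ab : Ab S := ab_of_isCyclic h.cyc

theorem comm {a b : L} (ha : a ∈ S) (hb : b ∈ S) (v : W) : a • b • v = b • a • v := by
  rw [← mul_smul, ← mul_smul, mem_C.1 (h.ab ha) b hb]

theorem exists_ne : ∃ v : W, v ≠ 1 := by
  have : Nontrivial W := Finite.one_lt_card_iff_nontrivial.1 (by have := h.h16; omega)
  exact _root_.exists_ne 1

theorem eq_bot (hn : Nrm S X) {v : W} (hv : v ≠ 1) (e : ∀ x ∈ X, x • v = v) : X = ⊥ :=
  eq_bot_iff.2 fun x hx => mem_bot.2 (h.faith x fun w => by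
    by_cases w1 : w = 1
    · rw [w1, smul_one]
    obtain ⟨s, hs, rfl⟩ := h.tr v w hv w1
    have := e _ (hn _ (inv_mem hs) x hx)
    rwa [inv_inv, mul_smul, mul_smul, inv_smul_eq_iff] at this)

theorem one_of_C {g : L} (hg : g ∈ C S) {v : W} (hv : v ≠ 1) (e : g • v = v) : g = 1 :=
  h.faith g fun w => by
    by_cases w1 : w = 1
    · rw [w1, smul_one]
    obtain ⟨s, hs, rfl⟩ := h.tr v w hv w1
    rw [← mul_smul, ← mem_C.1 hg s hs, mul_smul, e]

theorem reg {s : L} (hs : s ∈ S) {v : W} (hv : v ≠ 1) (e : s • v = v) : s = 1 :=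
  h.one_of_C (h.ab hs) hv e

theorem C_le : C S ≤ S := fun g hg => by
  obtain ⟨v, hv⟩ := h.exists_ne
  obtain ⟨s, hs, e⟩ := h.tr v (g • v) hv (vl_ne_one hv)
  have := h.one_of_C (mul_mem (inv_mem (h.ab hs)) hg) hv (by rw [mul_smul, ← e, inv_smul_smul])
  exact inv_mul_eq_one.1 this ▸ hs

theorem card_S : Nat.card S + 1 = Nat.card W := by
  obtain ⟨v, hv⟩ := h.exists_ne
  rw [← Finite.card_option]
  refine Nat.card_congr (Equiv.ofBijective (fun o => o.elim 1 fun s => (s : L) • v) ⟨?_, ?_⟩)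
  · rintro (_ | a) (_ | b) e
    · rfl
    · exact (vl_ne_one hv e.symm).elim
    · exact (vl_ne_one hv e).elim
    · have : ((b : L)⁻¹ * a) • v = v := by rw [mul_smul, inv_smul_eq_iff]; exact e
      exact congrArg some (Subtype.ext (inv_mul_eq_one.1
        (h.reg (mul_mem (inv_mem b.2) a.2) hv this)).symm)
  · intro w
    by_cases w1 : w = 1
    · exact ⟨none, w1.symm⟩
    · obtain ⟨s, hs, e⟩ := h.tr v w hv w1
      exact ⟨some ⟨s, hs⟩, e⟩

theorem odd : Odd (Nat.card S) := by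
  obtain ⟨n, e⟩ := vl_card_even h.sq
  have a := h.card_S
  have b := h.h16
  have : 2 ∣ 2 ^ n := dvd_pow_self 2 (by rintro rfl; omega)
  rw [Nat.odd_iff]; omega

/-- a subgroup containing `S` with a non-trivial normal `r`-subgroup lies in `E`. -/
theorem le_of_nrm {r : ℕ} (hr : r.Prime) (hX : IsPGroup r X) (hne : X ≠ ⊥) (hS : S ≤ M)
    (hn : Nrm M X) : M ≤ E := by
  have := Fact.mk hr
  have a : r ∣ Nat.card S := by
    have b := hX.card_modEq_card_fixedPoints W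
    have c : fixedPoints X W = {1} := Set.eq_singleton_iff_unique_mem.2
      ⟨fun x => smul_one (x : L), fun v hv => by
        by_contra e
        exact hne (h.eq_bot (hn.mono hS) e fun x hx => hv ⟨x, hx⟩)⟩
    rw [c, Nat.card_coe_set_eq, Set.ncard_singleton, ← h.card_S] at b
    exact (Nat.modEq_zero_iff_dvd).1 (Nat.ModEq.add_right_cancel' 1 (by simpa using b))
  obtain ⟨x, hx, ox⟩ := exists_mem_orderOf_eq hr a
  have x1 : x ≠ 1 := fun e => hr.one_lt.ne' (by rw [← ox, e, orderOf_one])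
  have px : IsPGroup r (zpowers x) := isPGroup_zpowers (k := 1) (by rw [pow_one, ← ox, pow_orderOf_eq_one])
  have nb : ∀ Y : Subgroup L, x ∈ Y → Y ⊓ S ≠ ⊥ := fun Y hY e => x1 (by
    have : x ∈ Y ⊓ S := ⟨hY, hx⟩
    rwa [e, mem_bot] at this)
  have SE : S ≤ E := (nrm_of_isCyclic h.cyc (zpowers_le.2 hx) (Nrm.self S)).le_N.trans
    (h.ti r _ hr px (nb _ (mem_zpowers x)))
  have P := isPGroup_sup hr hX px (.inr (hn.mono ((zpowers_le.2 hx).trans hS)))
  have b : (X ⊔ zpowers x) ⊓ E = X ⊔ zpowers x :=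
    eq_of_nilpotent_of_N_le (nilpotent_of_isPGroup hr P) inf_le_left (inf_le_inf_left _
      (h.ti r _ hr (P.to_le inf_le_left) (nb _ ⟨mem_sup_right (mem_zpowers x), SE hx⟩)))
  have c : X ≤ E := le_sup_left.trans (inf_eq_left.1 b)
  refine hn.le_N.trans (h.ti r X hr hX fun e => hne ?_)
  rw [← e, left_eq_inf]
  exact (le_C_of_inf_eq_bot (h.nE.mono c) (hn.mono hS) e).trans h.C_le

theorem le_of_solv (hX : Group.IsSolvable X) (hne : X ≠ ⊥) (hS : S ≤ M) (hn : Nrm M X) : M ≤ E :=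
  let ⟨_, _, _, hr, m, e⟩ := exists_minNrm_elAb hne hn hX
  h.le_of_nrm hr e.isPGroup m.1 hS m.2.1

theorem le_BlkS (hX : X ≤ S) : S ≤ BlkS W X := fun _ hg v s hs => ⟨s, hs, h.comm hg (hX hs) v⟩

theorem le_KerS (hX : X ≤ S) : X ≤ KerS W X := fun g hg =>
  ⟨h.le_BlkS hX (hX hg), fun _ => ⟨g, hg, rfl⟩⟩

end Sing

/-- the orbit of `v` under `X` as a set acted on by `Z`. -/
def OrbS {X Z : Subgroup L} (hZ : Z ≤ KerS W X) (v : W) : SubMulAction Z W where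
  carrier := {w | ∃ s ∈ X, s • v = w}
  smul_mem' c := by
    rintro _ ⟨s, hs, rfl⟩
    obtain ⟨s1, h1, e⟩ := (hZ c.2).2 (s • v)
    exact ⟨s1 * s, mul_mem h1 hs, by rw [mul_smul, ← e]; rfl⟩

theorem Sing.main {S E : Subgroup L} (h : Sing W S E)
    (solv : ∀ v : W, v ≠ 1 → Group.IsSolvable (stabilizer L v)) : E = ⊤ := by
  by_contra hE
  obtain ⟨M, -, ⟨hS, hM⟩, mM⟩ := exists_minimal_le (P := fun M => S ≤ M ∧ ¬ M ≤ E) (X := ⊤)
    ⟨le_top, fun e => hE (top_le_iff.1 e)⟩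
  obtain ⟨v, hv⟩ := h.exists_ne
  have S1 : S ≠ ⊥ := fun e => by
    have := h.card_S; have := h.h16; rw [e, card_bot] at *; omega
  obtain ⟨X, XS, ⟨X1, hX⟩, mX⟩ := exists_minimal_le (P := fun X => X ≠ ⊥ ∧ M ≤ BlkS W X) (X := S)
    ⟨S1, fun g _ w s hs => by
      by_cases w1 : w = 1
      · exact ⟨1, one_mem _, by simp [w1]⟩
      · exact let ⟨s', a, b⟩ := h.tr (g • w) (g • s • w) (vl_ne_one w1) (vl_ne_one (vl_ne_one w1))
          ⟨s', a, b.symm⟩⟩
  set Z := M ⊓ KerS W X with hZ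
  have nZ : Nrm M Z := (Nrm.self M).inf ((nrm_KerS X).mono hX)
  have XZ : X ≤ Z := le_inf (XS.trans hS) (h.le_KerS XS)
  have eM : Z ⊔ S = M := mM _ ⟨le_sup_right, fun e => by
    have cX : IsCyclic X := by have := h.cyc; exact Subgroup.isCyclic_of_le XS
    have nX : Nrm Z X := nrm_of_isCyclic h.cyc XS (h.nE.mono (le_sup_left.trans e))
    obtain ⟨r, hr, -, o⟩ := exists_Op_ne_bot (K := X) (M := Z) ⟨XZ, nX⟩ X1
      (solvable_of_ab (ab_of_isCyclic cX))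
    have := Fact.mk hr
    exact hM (h.le_of_nrm hr (isPGroup_Op r Z) o hS (nZ.Op r))⟩ (sup_le inf_le_left hS)
  have dec : ∀ g ∈ M, ∃ z ∈ Z, ∃ a ∈ S, g = z * a := fun g hg =>
    (mem_sup_nrm' (nZ.mono hS)).1 (eM.ge hg)
  let B := OrbS (W := W) (X := X) (Z := Z) inf_le_right v
  let b0 : B := ⟨v, 1, one_mem _, one_smul _ _⟩
  let _ : CommGroup X := { (inferInstance : Group X) with
    mul_comm := fun a b => Subtype.ext (mem_C.1 (h.ab (XS b.2)) a (XS a.2)) }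
  have := Fintype.ofFinite X
  have : IsCyclic X := by have := h.cyc; exact Subgroup.isCyclic_of_le XS
  have sm : ∀ (z : Z) (w : B), ((z • w : B) : W) = (z : L) • (w : W) := fun _ _ => rfl
  have hb : Function.Bijective fun c : X => inclusion XZ c • b0 := by
    refine ⟨fun a b e => ?_, fun ⟨_, s, hs, e⟩ => ⟨⟨s, hs⟩, Subtype.ext e⟩⟩
    have e1 : (a : L) • v = (b : L) • v := congrArg Subtype.val e
    exact Subtype.ext (inv_mul_eq_one.1 (h.reg (XS (mul_mem (inv_mem b.2) a.2)) hv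
      (by rw [mul_smul, e1, inv_smul_smul]))).symm
  have pt : IsPretransitive Z B := ⟨fun x y => by
    obtain ⟨a, rfl⟩ := hb.2 x
    obtain ⟨b, rfl⟩ := hb.2 y
    exact ⟨inclusion XZ b * (inclusion XZ a)⁻¹, by rw [mul_smul, inv_smul_smul]⟩⟩
  have prim : IsPreprimitive Z B := IsPreprimitive.of_isTrivialBlock_base b0 fun {Δ} h0 hΔ => by
    have st : ∀ z : Z, z • b0 ∈ Δ → ∀ x ∈ Δ, z • x ∈ Δ := fun z hz x hx =>
      hΔ.smul_eq_of_mem h0 hz ▸ Set.smul_mem_smul_set hx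
    let X4 : Subgroup L :=
      { carrier := {s | ∃ hs : s ∈ X, (⟨s, XZ hs⟩ : Z) • b0 ∈ Δ}
        one_mem' := ⟨one_mem _, by exact (one_smul Z b0).symm ▸ h0⟩
        mul_mem' := fun {a b} ⟨ha, ea⟩ ⟨hb, eb⟩ => ⟨mul_mem ha hb, by
          have := st _ ea _ eb
          rwa [← mul_smul] at this⟩
        inv_mem' := fun {a} ⟨ha, ea⟩ => ⟨inv_mem ha, by
          have := hΔ.smul_eq_of_mem h0 ea
          rw [← this, Set.mem_smul_set_iff_inv_smul_mem] at h0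
          exact h0⟩ }
    have le4 : X4 ≤ X := fun s hs => hs.1
    by_cases e : X4 = ⊥
    · refine .inl fun x hx y hy => ?_
      have : ∀ x ∈ Δ, x = b0 := fun x hx => by
        obtain ⟨a, rfl⟩ := hb.2 x
        have : (a : L) ∈ X4 := ⟨a.2, hx⟩
        rw [e, mem_bot] at this
        exact Subtype.ext (by change (a : L) • v = v; rw [this, one_smul])
      rw [this x hx, this y hy]
    have e4 : X4 = X := mX _ ⟨e, eM.symm.le.trans (sup_le (fun z hz w s hs => ?_)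
      (h.le_BlkS (le4.trans XS)))⟩ le4
    · refine .inr (Set.eq_univ_of_forall fun x => ?_)
      obtain ⟨a, rfl⟩ := hb.2 x
      exact (e4.ge a.2).2
    by_cases w1 : w = 1
    · exact ⟨1, one_mem _, by simp [w1]⟩
    obtain ⟨a, ha, rfl⟩ := h.tr v w hv w1
    have z1 := nZ _ (inv_mem (hS ha)) z hz
    obtain ⟨t, ht, et⟩ := z1.2.2 v
    have c1 : ((⟨t, XZ ht⟩ : Z)⁻¹ * ⟨_, z1⟩) • b0 = b0 := Subtype.ext (by
      change (t⁻¹ * (a⁻¹ * z * a⁻¹⁻¹)) • v = v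
      rw [mul_smul, et, inv_smul_smul])
    have c2 := st _ (c1.symm ▸ h0) _ hs.2
    obtain ⟨s', e'⟩ := hb.2 (((⟨t, XZ ht⟩ : Z)⁻¹ * ⟨_, z1⟩) • (⟨s, XZ hs.1⟩ : Z) • b0)
    refine ⟨s', ⟨s'.2, by rw [← e'] at c2; exact c2⟩, ?_⟩
    have e2 : (s' : L) • v = (t⁻¹ * (a⁻¹ * z * a⁻¹⁻¹)) • s • v := congrArg Subtype.val e'
    rw [inv_inv, mul_smul, eq_inv_smul_iff, mul_smul, mul_smul, eq_inv_smul_iff] at e2
    rw [inv_inv, mul_smul, mul_smul, inv_smul_eq_iff] at et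
    rw [h.comm (XS (le4 hs)) ha, ← e2, et, h.comm (XS ht) (XS s'.2), h.comm ha (XS s'.2)]
  rcases prim_cyc (inclusion XZ) b0 hb prim with two | loc
  · rw [is_two_pretransitive_iff] at two
    have two' : ∀ a ∈ X, ∀ b ∈ X, ∀ c ∈ X, ∀ d ∈ X, a ≠ b → c ≠ d →
        ∃ z ∈ Z, z • a • v = c • v ∧ z • b • v = d • v := fun a ha b hb' c hc d hd n1 n2 => by
      obtain ⟨z, e1, e2⟩ := two (fun e => n1 (congrArg Subtype.val (hb.1 (a₁ := ⟨a, ha⟩)
        (a₂ := ⟨b, hb'⟩) e))) (fun e => n2 (congrArg Subtype.val (hb.1 (a₁ := ⟨c, hc⟩)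
        (a₂ := ⟨d, hd⟩) e)))
      exact ⟨z, z.2, congrArg Subtype.val e1, congrArg Subtype.val e2⟩
    have all := lin_mid h.sq XZ X1 (h.odd.of_dvd_nat (card_dvd_of_le XS))
      (fun s hs w hw => h.reg (XS hs) hw) (fun z hz => hz.2.2) (fun x y x1 y1 =>
        let ⟨s, hs, e⟩ := h.tr x y x1 y1
        ⟨s, e, fun t ht => mem_C.1 (h.ab (XS ht)) s hs⟩) hv two' v
    refine lin2 h.faith h.sq h.h16 (fun x y x' y' x1 y1 x2 y2 n1 n2 => ?_) solv
    obtain ⟨a, ha, rfl⟩ := all x hv x1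
    obtain ⟨b, hb, rfl⟩ := all y hv y1
    obtain ⟨c, hc, rfl⟩ := all x' hv x2
    obtain ⟨d, hd, rfl⟩ := all y' hv y2
    obtain ⟨z, -, e⟩ := two' a ha b hb c hc d hd (fun e => n1 (by rw [e])) fun e => n2 (by rw [e])
    exact ⟨z, e⟩
  let T : Set L := {x | ∃ g ∈ M, ∃ c ∈ X, x = g * c * g⁻¹}
  have l1 : ∀ x ∈ T, ∀ w : W, ∃ c ∈ X, ∀ s ∈ X, x • s • w = c • s • w := by
    rintro _ ⟨g, hg, c, hc, rfl⟩ w
    by_cases w1 : w = 1
    · exact ⟨1, one_mem _, by simp [w1]⟩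
    obtain ⟨a, ha, rfl⟩ := h.tr v w hv w1
    obtain ⟨z, hz, b, hb, e⟩ := dec _ (mul_mem (inv_mem (hS ha)) hg)
    obtain ⟨c', e'⟩ := loc ⟨z, hz⟩ ⟨c, hc⟩
    refine ⟨c', c'.2, fun s hs => ?_⟩
    have e2 : (z * c * z⁻¹) • s • v = (c' : L) • s • v :=
      congrArg Subtype.val (e' ⟨s • v, s, hs, rfl⟩)
    have e3 : g * c * g⁻¹ = a * (z * c * z⁻¹) * a⁻¹ := by
      rw [inv_mul_eq_iff_eq_mul.1 e]
      calc _ = a * (z * (b * c * b⁻¹) * z⁻¹) * a⁻¹ := by group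
        _ = _ := by rw [mem_C.1 (h.ab (XS hc)) b hb, mul_inv_cancel_right]
    rw [e3, h.comm (XS hs) ha, mul_smul, mul_smul a, inv_smul_smul, e2, h.comm ha (XS c'.2)]
  have l2 : ∀ x ∈ T, ∀ y ∈ T, x * y = y * x := fun x hx y hy =>
    inv_mul_eq_one.1 (h.faith _ fun w => by
      obtain ⟨c, hc, e⟩ := l1 x hx w
      obtain ⟨d, hd, e'⟩ := l1 y hy w
      have e1 := e 1 (one_mem _)
      have e2 := e' 1 (one_mem _)
      rw [one_smul] at e1 e2
      rw [mul_smul, inv_smul_eq_iff, mul_smul, mul_smul, e1, e2, e d hd, e' c hc,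
        h.comm (XS hc) (XS hd)])
  have l3 : Ab (closure T) := le_C_symm ((closure_le _).2 fun x hx =>
    (show closure T ≤ C1 x from (closure_le _).2 fun y hy => mem_C1.2 (l2 y hy x hx)) |>
      le_C1_iff.1)
  refine hM (h.le_of_solv (solvable_of_ab l3) (fun e => X1 (eq_bot_iff.2 fun c hc => e ▸
    subset_closure ⟨1, one_mem _, c, hc, by group⟩)) hS fun g hg => ?_)
  have : closure T ≤ cj g⁻¹ (closure T) := (closure_le _).2 fun _ ⟨k, hk, c, hc, e⟩ => by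
    rw [SetLike.mem_coe, mem_cj, e]
    exact subset_closure ⟨g * k, mul_mem hg hk, c, hc, by group⟩
  intro x hx
  simpa [mem_cj] using this hx

theorem linh : LINh.{u} := fun a b c _ _ d e f g h => Sing.main ⟨a, b, c, d, e, f, g⟩ h

end CfsgSE
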